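import Cfsg.Agent.H54.Kill.Base
import Cfsg.Agent.KFacts.Co1D4.TwoB
import Cfsg.Agent.S0399

/-!
# Kill row for `Co1` (helper54)

`A4 × G2(4) ≤ Co1` : the element of order 13 of `G2(4)` commutes with `A4`.
-/

set_option autoImplicit false
set_option maxRecDepth 100000

namespace Cfsg.Agent.H54.Kill.Co1

open Cfsg Cfsg.Agent.KFacts.Co1D4

theorem card_Co1 : Nat.card Spor.Co1 = 4157776806543360000 := Cfsg.Agent.S0399.result.2

theorem r_cube : TwoB.r ^ 3 = 1 := by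
  have h := Letters.rel (u := [13, 13, 13]) (v := []) (by decide +kernel)
  simp only [Letters.val, List.map_cons, List.map_nil, List.prod_cons, List.prod_nil, mul_one] at h
  rw [pow_succ, pow_two, mul_assoc]
  exact h

theorem order_r : orderOf TwoB.r = 3 := by
  have h3 : Fact (Nat.Prime 3) := ⟨by norm_num⟩
  refine orderOf_eq_prime r_cube ?_
  intro h
  have h1 := TwoB.rw_
  rw [h, one_mul, inv_one, mul_one] at h1
  exact TwoB.vw h1.symm

theorem kill_model : Cfsg.Agent.H480.Kill Spor.Co1 := by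
  have hf : Finite Spor.Co1 := Nat.finite_of_card_ne_zero (by rw [card_Co1]; norm_num)
  have h13 : Fact (Nat.Prime 13) := ⟨by norm_num⟩
  obtain ⟨⟨y, hyL⟩, hy⟩ := exists_prime_orderOf_dvd_card' (G := GTwo.L) 13 (by rw [GTwo.card_L]; norm_num)
  have hy' : orderOf y = 13 := by rw [← hy, ← Subgroup.orderOf_coe]
  have hw : TwoB.w⁻¹ = TwoB.w := inv_eq_of_mul_eq_one_left TwoB.ww
  have hv : TwoB.v⁻¹ = TwoB.v := inv_eq_of_mul_eq_one_left TwoB.vv
  have hcom : TwoB.w * TwoB.r * TwoB.w⁻¹ * TwoB.r⁻¹ = TwoB.w * TwoB.v := by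
    rw [← TwoB.rw_, hw]
    simp only [mul_assoc]
  refine kill_of_sylow (r := 13) (z := y) (d := TwoB.r) (q := TwoB.w) (by norm_num) ?_ hy'
    (by rw [order_r]; norm_num) (TwoB.Lr y hyL) (TwoB.Lw y hyL) ?_ ?_
  · rw [card_Co1]
    norm_num
  · rw [hcom, order_r]
    have h1 : (TwoB.w * TwoB.v) ^ 2 = 1 := by
      rw [pow_two]
      calc TwoB.w * TwoB.v * (TwoB.w * TwoB.v) = TwoB.w * (TwoB.v * TwoB.w) * TwoB.v := by group
        _ = (TwoB.w * TwoB.w) * (TwoB.v * TwoB.v) := by rw [← TwoB.wv]; group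
        _ = 1 := by rw [TwoB.ww, TwoB.vv, mul_one]
    exact Nat.Coprime.coprime_dvd_left (orderOf_dvd_of_pow_eq_one h1) (by norm_num)
  · rw [hcom]
    intro h
    -- `r (w v) r⁻¹ = v w v = w`
    have h1 : TwoB.r * (TwoB.w * TwoB.v) * TwoB.r⁻¹ = TwoB.w := by
      calc TwoB.r * (TwoB.w * TwoB.v) * TwoB.r⁻¹ = (TwoB.r * TwoB.w * TwoB.r⁻¹) * (TwoB.r * TwoB.v * TwoB.r⁻¹) := by
            group
        _ = TwoB.v * (TwoB.w * TwoB.v) := by rw [TwoB.rw_, TwoB.rv]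
        _ = TwoB.w * (TwoB.v * TwoB.v) := by rw [← mul_assoc, ← TwoB.wv, mul_assoc]
        _ = TwoB.w := by rw [TwoB.vv, mul_one]
    rw [← h, mul_inv_cancel_right] at h1
    exact TwoB.v_ne (mul_eq_left.1 h1)

theorem kill {K : Type*} [Group K] (h : Cfsg.Spor.IsoCo1 K) : Cfsg.Agent.H480.Kill K := by
  obtain ⟨e⟩ := h
  exact kill_model.congr e.symm

end Cfsg.Agent.H54.Kill.Co1
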