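import Cfsg.Agent.H54.Kill.M23
import Cfsg.Agent.H54.Kill.ThreeOf
import Cfsg.Agent.H49.CoStab

/-!
# The second criterion for `Co2` and `Co3` (helper54)

The shift of order 23 generates its own centralizer in the stabilizer of `(-3, 1^23)` and of `(5, 1^23)`.
-/

set_option autoImplicit false
set_option maxRecDepth 100000

namespace Cfsg.Agent.H54.Kill.Co23

open Subgroup Cfsg Cfsg.Agent.H480 Cfsg.Agent.SporadicA.GolayBase Cfsg.Agent.SporadicA.GolayPerm
open Cfsg.Agent.SporadicA.ConwayShift Cfsg.Agent.SporadicA.Co0Basic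
open Cfsg.Agent.H54.Kill.Golay

/-- a permutation of `M23` -/
noncomputable def pi : Equiv.Perm GolayPt := (el M23.Q M23.hQ : M24)

theorem pi_mem : pi ∈ M24 := (el M23.Q M23.hQ).2

theorem pi_none : pi none = none := (M23.mem23 M23.hQ (by decide +kernel)).2

theorem pi_pt (i : ℕ) (hi : i < 24) : pi (pt i) = pt (papp M23.Q i) := by
  have h : idx (permOf M23.Q (Bool.and_eq_true_iff.1 M23.hQ).1 (pt i)) = papp M23.Q (idx (pt i)) := idx_permOf _ _
  rw [idx_pt hi] at h
  apply idx_injective
  rw [idx_pt (papp_lt (Bool.and_eq_true_iff.1 M23.hQ).1 hi)]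
  exact h

variable (c : ℤ) (hc : c = -3 ∨ c = 5)

theorem pi_u : (permCo0 pi pi_mem).1 (u c hc) = u c hc := by
  apply Subtype.ext
  funext i
  rw [permCo0_apply]
  change uFun c (pi⁻¹ i) = uFun c i
  unfold uFun
  have h : pi⁻¹ i = none ↔ i = none := by
    rw [Equiv.Perm.inv_eq_iff_eq, pi_none]
  simp only [h]

/-- the element `pi` of the stabilizer -/
noncomputable def kk : MulAction.stabilizer Co0 (u c hc) := ⟨permCo0 pi pi_mem, pi_u c hc⟩

theorem kk_notin : kk c hc * shiftStab c hc * (kk c hc)⁻¹ ∉ zpowers (shiftStab c hc) := by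
  intro h
  have ho := orderOf_shiftStab c hc
  have hfin : IsOfFinOrder (shiftStab c hc) := orderOf_pos_iff.1 (by rw [ho]; norm_num)
  obtain ⟨i, h2⟩ := hfin.mem_powers_iff_mem_zpowers.2 h
  have h3 : kk c hc * shiftStab c hc = shiftStab c hc ^ i * kk c hc := by
    change shiftStab c hc ^ i = _ at h2
    rw [h2]
    group
  have h4 : permCo0 pi pi_mem * shift = shift ^ i * permCo0 pi pi_mem := congrArg Subtype.val h3
  have h5 : ∀ j : GolayPt, pi (tau j) = (tau ^ i) (pi j) := by
    intro j
    have h6 := congrArg (fun g : Co0 => g.1 (e8 j)) h4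
    have e1 : (permCo0 pi pi_mem * shift).1 (e8 j) = (permCo0 pi pi_mem).1 (shift.1 (e8 j)) := rfl
    have e2 : (shift ^ i * permCo0 pi pi_mem).1 (e8 j) = (shift ^ i).1 ((permCo0 pi pi_mem).1 (e8 j)) := rfl
    simp only [e1, e2, shift_e8, permCo0_e8, shift_pow_e8] at h6
    exact e8_injective h6
  have q0 : pi (some 0) = some 17 := by
    have h7 := pi_pt 0 (by norm_num)
    rw [show papp M23.Q 0 = 17 by decide +kernel, show pt 0 = some 0 by decide, show pt 17 = some 17 by decide] at h7
    exact h7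
  have q1 : pi (some 1) = some 2 := by
    have h7 := pi_pt 1 (by norm_num)
    rw [show papp M23.Q 1 = 2 by decide +kernel, show pt 1 = some 1 by decide, show pt 2 = some 2 by decide] at h7
    exact h7
  have q2 : pi (some 2) = some 1 := by
    have h7 := pi_pt 2 (by norm_num)
    rw [show papp M23.Q 2 = 1 by decide +kernel, show pt 1 = some 1 by decide, show pt 2 = some 2 by decide] at h7
    exact h7
  have t0 : tau (some 0) = some 1 := by
    have h7 := tau_pow_apply 1 0
    rw [pow_one] at h7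
    rw [h7]
    decide
  have t1 : tau (some 1) = some 2 := by
    have h7 := tau_pow_apply 1 1
    rw [pow_one] at h7
    rw [h7]
    decide
  have h8 := h5 (some 0)
  have h9 := h5 (some 1)
  rw [t0, q0, q1, tau_pow_apply, Option.some_inj] at h8
  rw [t1, q1, q2, tau_pow_apply, Option.some_inj] at h9
  have h10 : (i : ZMod 23) = 2 - 17 := by rw [h8]; ring
  rw [h10] at h9
  revert h9
  decide

/-- the elements fixing `e8 none` -/
noncomputable def H : Subgroup (MulAction.stabilizer Co0 (u c hc)) :=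
  (MulAction.stabilizer Co0 (e8 none)).subgroupOf (MulAction.stabilizer Co0 (u c hc))

theorem shift_mem : shiftStab c hc ∈ H c hc := by
  rw [H, mem_subgroupOf, MulAction.mem_stabilizer_iff]
  exact shift_e8 none

theorem kk_mem : kk c hc ∈ H c hc := by
  rw [H, mem_subgroupOf, MulAction.mem_stabilizer_iff]
  change (permCo0 pi pi_mem).1 (e8 none) = e8 none
  rw [permCo0_e8, pi_none]

theorem card_two : Nat.card (MulAction.stabilizer Co0 (u (-3) (Or.inl rfl))) = 42305421312000 :=
  (S0402.result _ sqNorm_u_neg3).2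

theorem card_three : Nat.card (MulAction.stabilizer Co0 (u 5 (Or.inr rfl))) = 495766656000 :=
  (S0403.result _ sqNorm_u_5).2

theorem u_eq : u 5 (Or.inr rfl) = u (-3) (Or.inl rfl) + e8 none := by
  apply Subtype.ext
  funext i
  rw [AddSubgroup.coe_add, Pi.add_apply, e8_apply]
  change uFun 5 i = uFun (-3) i + _
  unfold uFun
  by_cases hi : i = none
  · simp [hi]
  · simp [hi]

theorem H_ne_top_two : H (-3) (Or.inl rfl) ≠ ⊤ := by
  intro h
  have h1 : MulAction.stabilizer Co0 (u (-3) (Or.inl rfl)) ≤ MulAction.stabilizer Co0 (u 5 (Or.inr rfl)) := by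
    intro g hg
    have h2 : (⟨g, hg⟩ : MulAction.stabilizer Co0 (u (-3) (Or.inl rfl))) ∈ H (-3) (Or.inl rfl) := by
      rw [h]; exact mem_top _
    rw [H, mem_subgroupOf] at h2
    have h3 : g.1 (e8 none) = e8 none := h2
    have h4 : g.1 (u (-3) (Or.inl rfl)) = u (-3) (Or.inl rfl) := hg
    change g.1 (u 5 (Or.inr rfl)) = u 5 (Or.inr rfl)
    rw [u_eq, SporadicA.Co0Basic.map_add, h3, h4]
  have h5 := Subgroup.card_dvd_of_le h1
  rw [card_two, card_three] at h5
  revert h5
  norm_num

theorem H_ne_top_three : H 5 (Or.inr rfl) ≠ ⊤ := by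
  intro h
  have h1 : MulAction.stabilizer Co0 (u 5 (Or.inr rfl)) ≤ MulAction.stabilizer Co0 (u (-3) (Or.inl rfl)) := by
    intro g hg
    have h2 : (⟨g, hg⟩ : MulAction.stabilizer Co0 (u 5 (Or.inr rfl))) ∈ H 5 (Or.inr rfl) := by
      rw [h]; exact mem_top _
    rw [H, mem_subgroupOf] at h2
    have h3 : g.1 (e8 none) = e8 none := h2
    have h4 : g.1 (u 5 (Or.inr rfl)) = u 5 (Or.inr rfl) := hg
    change g.1 (u (-3) (Or.inl rfl)) = u (-3) (Or.inl rfl)
    rw [u_eq, SporadicA.Co0Basic.map_add, h3] at h4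
    exact add_right_cancel h4
  have h5 := Subgroup.card_dvd_of_le h1
  rw [card_two, card_three] at h5
  revert h5
  norm_num

theorem kill3_two : Kill3 (MulAction.stabilizer Co0 (u (-3) (Or.inl rfl))) := by
  have hf : Finite (MulAction.stabilizer Co0 (u (-3) (Or.inl rfl))) :=
    Nat.finite_of_card_ne_zero (by rw [card_two]; norm_num)
  refine Kill3.of (r := 23) (by norm_num) (by norm_num) card_two (by norm_num) (by norm_num) (by norm_num)
    (orderOf_shiftStab _ _) (fun x hx => ?_) (H _ _) H_ne_top_two (shift_mem _ _) (kk_mem _ _) (kk_notin _ _)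
  exact shiftStab_selfCent S0391.result _ _ x hx

theorem kill3_three : Kill3 (MulAction.stabilizer Co0 (u 5 (Or.inr rfl))) := by
  have hf : Finite (MulAction.stabilizer Co0 (u 5 (Or.inr rfl))) :=
    Nat.finite_of_card_ne_zero (by rw [card_three]; norm_num)
  refine Kill3.of (r := 23) (by norm_num) (by norm_num) card_three (by norm_num) (by norm_num) (by norm_num)
    (orderOf_shiftStab _ _) (fun x hx => ?_) (H _ _) H_ne_top_three (shift_mem _ _) (kk_mem _ _) (kk_notin _ _)
  exact shiftStab_selfCent S0391.result _ _ x hx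

/-- **the second criterion for `Co2`** -/
theorem kill3_co2 {K : Type*} [Group K] (h : Spor.IsoCo2 K) : Kill3 K := by
  obtain ⟨e⟩ := h
  obtain ⟨g, hg⟩ := S0400.result (u (-3) (Or.inl rfl)) Spor.leechU sqNorm_u_neg3 H49.CoStab.norm_U
  exact kill3_two.congr (((MulAction.stabilizerEquivStabilizer (G := Co0) hg.symm).trans
    (H49.CoStab.equivSt Spor.leechU)).trans e.symm)

/-- **the second criterion for `Co3`** -/
theorem kill3_co3 {K : Type*} [Group K] (h : Spor.IsoCo3 K) : Kill3 K := by
  obtain ⟨e⟩ := h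
  obtain ⟨g, hg⟩ := S0401.result (u 5 (Or.inr rfl)) Spor.leechV sqNorm_u_5 H49.CoStab.norm_V
  exact kill3_three.congr (((MulAction.stabilizerEquivStabilizer (G := Co0) hg.symm).trans
    (H49.CoStab.equivSt Spor.leechV)).trans e.symm)

end Cfsg.Agent.H54.Kill.Co23
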