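import Cfsg.Agent.H54.Kill.Period
import Cfsg.Agent.H545.PQ.FischerC

/-!
# Kill row for Fi24' (helper54)

`3 × 2 : G2(3)`-like subgroup: `w` of order 13 in the group generated by the nodes `d e f g h i j` and one more
transposition `s` commuting with `l, k, b`; the involutions `l b`, `k b` commute with `w`.
-/

set_option autoImplicit false
set_option maxRecDepth 100000

namespace Cfsg.Agent.H54.Kill.Fi24p

open Cfsg Cfsg.Agent.Lib.PermNet Cfsg.Agent.Lib.PermNetOrbit Cfsg.Agent.H480
open Cfsg.Agent.Fischer.Fi24Rep Cfsg.Agent.Fischer.Fi24RepDef Cfsg.Agent.Fischer.Fi24Final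
open Cfsg.Agent.H545.PQ.FischerC
open Cfsg.Spor.Fi24 (Gen edges)
open Cfsg.Spor (coxLabel)

theorem braid {x y : Gen} (h : coxLabel edges x y = 3) : gen x * gen y * gen x = gen y * gen x * gen y := by
  have h3 := gen_rel x y
  rw [h] at h3
  have hx := gen_sq x
  have hy := gen_sq y
  have h4 : gen x * gen y * gen x * (gen y * gen x * gen y) = 1 := by
    calc gen x * gen y * gen x * (gen y * gen x * gen y) = (gen x * gen y) ^ 3 := by
          rw [pow_succ, pow_two]; simp only [mul_assoc]
      _ = 1 := h3
  have h5 := eq_inv_of_mul_eq_one_left h4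
  rw [h5]
  apply inv_eq_of_mul_eq_one_left
  calc gen y * gen x * gen y * (gen y * gen x * gen y) = gen y * gen x * (gen y * gen y) * gen x * gen y := by
        simp only [mul_assoc]
    _ = gen y * (gen x * gen x) * gen y := by rw [hy, mul_one]; simp only [mul_assoc]
    _ = 1 := by rw [hx, mul_one, hy]

theorem aux {G : Type*} [Group G] {b c d e h : G} (hbc : b * c * b = c * b * c) (hcd : c * d * c = d * c * d)
    (hde : d * e * d = e * d * e) (hbd : b * d = d * b) (hbe : b * e = e * b) (hce : c * e = e * c)
    (heh : e * h = h * e) :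
    (c * b * d * c * e * d * h * (d * e * c * d * b * c)) * b =
      b * (c * b * d * c * e * d * h * (d * e * c * d * b * c)) := by
  have h1 : b * (c * b * d * c * e * d) = c * b * d * c * e * d * e := by
    calc b * (c * b * d * c * e * d) = (b * c * b) * d * c * e * d := by simp only [mul_assoc]
      _ = c * b * (c * d * c) * e * d := by rw [hbc]; simp only [mul_assoc]
      _ = c * b * d * c * (d * e * d) := by rw [hcd]; simp only [mul_assoc]
      _ = c * b * d * c * e * d * e := by rw [hde]; simp only [mul_assoc]
  have h2 : (d * e * c * d * b * c) * b = e * (d * e * c * d * b * c) := by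
    calc (d * e * c * d * b * c) * b = d * e * c * d * (b * c * b) := by simp only [mul_assoc]
      _ = d * e * (c * d * c) * b * c := by rw [hbc]; simp only [mul_assoc]
      _ = (d * e * d) * c * d * b * c := by rw [hcd]; simp only [mul_assoc]
      _ = e * (d * e * c * d * b * c) := by rw [hde]; simp only [mul_assoc]
  calc (c * b * d * c * e * d * h * (d * e * c * d * b * c)) * b
      = c * b * d * c * e * d * h * ((d * e * c * d * b * c) * b) := by simp only [mul_assoc]
    _ = c * b * d * c * e * d * (h * e) * (d * e * c * d * b * c) := by rw [h2]; simp only [mul_assoc]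
    _ = (c * b * d * c * e * d * e) * h * (d * e * c * d * b * c) := by rw [← heh]; simp only [mul_assoc]
    _ = b * (c * b * d * c * e * d * h * (d * e * c * d * b * c)) := by rw [← h1]; simp only [mul_assoc]

def sw : List Gen := [.c, .b, .d, .c, .e, .d, .h, .d, .e, .c, .d, .b, .c]
def w1 : List Gen := [.j, .g, .e, .i, .e, .h, .d, .e, .f]
def w : List Gen := w1 ++ sw

theorem word_append (u v : List Gen) : word (u ++ v) = word u * word v := by
  unfold word
  rw [List.map_append, List.prod_append]

theorem comm_word {x : Gen} (u : List Gen) (h : ∀ y ∈ u, coxLabel edges y x = 2) :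
    word u * gen x = gen x * word u := by
  unfold word
  induction u with
  | nil => simp
  | cons y u ih =>
    rw [List.map_cons, List.prod_cons, mul_assoc, ih fun z hz => h z (List.mem_cons_of_mem _ hz), ← mul_assoc,
      gen_comm (h y List.mem_cons_self), mul_assoc]

theorem w_l : word w * gen .l = gen .l * word w := comm_word _ (by decide)
theorem w_k : word w * gen .k = gen .k * word w := comm_word _ (by decide)

theorem s_b : word sw * gen .b = gen .b * word sw := by
  have h := aux (b := gen .b) (c := gen .c) (d := gen .d) (e := gen .e) (h := gen .h) (braid (by decide))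
    (braid (by decide)) (braid (by decide)) (gen_comm (by decide)) (gen_comm (by decide)) (gen_comm (by decide))
    (gen_comm (by decide))
  unfold word sw
  simp only [List.map_cons, List.map_nil, List.prod_cons, List.prod_nil, mul_one]
  simpa only [mul_assoc] using h

theorem w_b : word w * gen .b = gen .b * word w := by
  have h1 : word w1 * gen .b = gen .b * word w1 := comm_word _ (by decide)
  rw [w, word_append, mul_assoc, s_b, ← mul_assoc, h1, mul_assoc]

theorem k_b : gen .k * gen .b = gen .b * gen .k := gen_comm (by decide)
theorem l_b : gen .l * gen .b = gen .b * gen .l := gen_comm (by decide)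

/-- the elements of `Fi24'` -/
def A : ↥(commutator Cfsg.Spor.Fi24) := ⟨word [.l, .b], word_mem (by decide)⟩
/-- the elements of `Fi24'` -/
def B : ↥(commutator Cfsg.Spor.Fi24) := ⟨word [.k, .b], word_mem (by decide)⟩
/-- the elements of `Fi24'` -/
def W : ↥(commutator Cfsg.Spor.Fi24) := ⟨word w, word_mem (by decide)⟩

theorem word_two (x y : Gen) : word [x, y] = gen x * gen y := by
  unfold word
  simp

theorem hk (n : ℕ) (i : ℕ) : (rho.comp (commutator Cfsg.Spor.Fi24).subtype) (W ^ n) i =
    ptWord (nw (rep n w) false) i := by
  rw [MonoidHom.comp_apply, Subgroup.coe_subtype, SubgroupClass.coe_pow]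
  change rho (word w ^ n) i = _
  rw [← word_rep, rho_word, ptWord_eq (wok _ _)]

theorem kill_model : Kill Cfsg.Spor.Fi24' := by
  have := H545.PQ.FischerC.finite
  have e1 : gen .l * gen .l = 1 := gen_sq .l
  have e2 : gen .k * gen .k = 1 := gen_sq .k
  have e3 : gen .b * gen .b = 1 := gen_sq .b
  refine kill_of_invol_dvd (S := Cfsg.Spor.Fi24') (r := 13) (by norm_num) (by norm_num) ?_ (w := W)
    (a := A) (b := B) ?_ ?_ ?_ ?_ ?_ ?_ ?_
  · rw [H545.PQ.FischerC.card]
    norm_num
  · refine dvd_orderOf_of_point (rho.comp (commutator Cfsg.Spor.Fi24).subtype) _ (by norm_num) 1 ?_ ?_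
    · rw [hk]
      exact Nat.eq_of_beq_eq_true (by decide +kernel)
    · rw [← pow_one W, hk]
      exact Nat.ne_of_beq_eq_false (by decide +kernel)
  · apply Subtype.ext
    change word w * word [.l, .b] = word [.l, .b] * word w
    rw [word_two, ← mul_assoc, w_l, mul_assoc, w_b, mul_assoc]
  · apply Subtype.ext
    change word w * word [.k, .b] = word [.k, .b] * word w
    rw [word_two, ← mul_assoc, w_k, mul_assoc, w_b, mul_assoc]
  · apply Subtype.ext
    change word [.l, .b] * word [.l, .b] = 1
    rw [word_two]
    calc gen .l * gen .b * (gen .l * gen .b) = gen .l * (gen .b * gen .l) * gen .b := by simp only [mul_assoc]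
      _ = (gen .l * gen .l) * (gen .b * gen .b) := by rw [← l_b]; simp only [mul_assoc]
      _ = 1 := by rw [e1, e3, mul_one]
  · apply Subtype.ext
    change word [.k, .b] * word [.k, .b] = 1
    rw [word_two]
    calc gen .k * gen .b * (gen .k * gen .b) = gen .k * (gen .b * gen .k) * gen .b := by simp only [mul_assoc]
      _ = (gen .k * gen .k) * (gen .b * gen .b) := by rw [← k_b]; simp only [mul_assoc]
      _ = 1 := by rw [e2, e3, mul_one]
  · apply Subtype.ext
    change (word [.l, .b] * word [.k, .b]) ^ 3 = 1
    rw [word_two, word_two]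
    have h1 : gen .l * gen .b * (gen .k * gen .b) = gen .l * gen .k := by
      calc gen .l * gen .b * (gen .k * gen .b) = gen .l * (gen .b * gen .k) * gen .b := by simp only [mul_assoc]
        _ = (gen .l * gen .k) * (gen .b * gen .b) := by rw [← k_b]; simp only [mul_assoc]
        _ = gen .l * gen .k := by rw [e3, mul_one]
    rw [h1]
    exact gen_rel .l .k
  · intro h
    have h1 : word [.l, .b] = word [.k, .b] := congrArg Subtype.val h
    rw [word_two, word_two] at h1
    have h2 : gen .l = gen .k := mul_right_cancel h1
    have h3 : rho (gen .l) 0 = rho (gen .k) 0 := by rw [h2]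
    have h4 : ∀ x : Gen, rho (gen x) 0 = ptWord (nw [x] false) 0 := by
      intro x
      have : gen x = word [x] := by simp [word]
      rw [this, rho_word, ptWord_eq (wok _ _)]
    rw [h4, h4] at h3
    exact Nat.ne_of_beq_eq_false (by decide +kernel) h3

theorem kill {K : Type*} [Group K] (h : Cfsg.Spor.IsoFi24' K) : Kill K := by
  obtain ⟨e⟩ := h
  exact kill_model.congr e.symm

end Cfsg.Agent.H54.Kill.Fi24p
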