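import Cfsg.Agent.H54.Kill.M11M12
import Cfsg.Agent.H54.Kill.M23
import Cfsg.Agent.H54.Kill.ThreeOf
import Cfsg.Agent.H729.M22Deg

/-!
# The second criterion for `M22` (helper54)

The element `X` of order 11 generates its own centralizer; it is in a subgroup `L2(11)`, the stabilizer of a dodecad.
-/

set_option autoImplicit false
set_option maxRecDepth 100000

namespace Cfsg.Agent.H54.Kill.M22

open Subgroup Cfsg Cfsg.Agent.H480 Cfsg.Agent.SporadicA.GolayBase Cfsg.Agent.SporadicA.GolayPerm
open Cfsg.Agent.H54.Kill.Golay Cfsg.Agent.H54.Kill.GolayCent Cfsg.Agent.H54.Kill.GolayKill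

theorem M22_le : Spor.M22 ≤ M24 := inf_le_left.trans M23.M23_le

theorem fix_none {g : Equiv.Perm GolayPt} (hg : g ∈ Spor.M22) : g none = none := hg.1.2
theorem fix_zero {g : Equiv.Perm GolayPt} (hg : g ∈ Spor.M22) : g (some 0) = some 0 := hg.2

theorem mem22 {P : ℕ} (hP : ok P = true) (h0 : Nat.beq (papp P 23) 23 = true) (h1 : Nat.beq (papp P 0) 0 = true) :
    (el P hP : Equiv.Perm GolayPt) ∈ Spor.M22 := by
  refine ⟨M23.mem23 hP h0, ?_⟩
  show (el P hP : Equiv.Perm GolayPt) • (some 0 : GolayPt) = some 0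
  have h2 : idx (permOf P (Bool.and_eq_true_iff.1 hP).1 (some 0)) = idx (some 0 : GolayPt) := by
    rw [idx_permOf]
    have e : idx (some 0 : GolayPt) = 0 := by decide
    rw [e]
    exact Nat.eq_of_beq_eq_true h1
  exact idx_injective h2

def X : ℕ := 983435072843990828779021698901151808
def N : ℕ := 970499966350631336865513127433832480
def Y : ℕ := 960962325266901801742538290970761312

theorem hX : ok X = true := by decide +kernel
theorem hN : ok N = true := by decide +kernel
theorem hY : ok Y = true := by decide +kernel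

def rs : List ℕ := [1, 5, 0, 23]
def T : List (ℕ × ℕ) := [(2, 0), (0, 0), (0, 1), (0, 8), (0, 2), (1, 0), (0, 9), (1, 9), (0, 3), (0, 5), (1, 1), (1, 4),
  (0, 10), (0, 7), (1, 10), (1, 8), (0, 4), (1, 3), (0, 6), (1, 7), (1, 2), (1, 6), (1, 5), (3, 0)]

/-- the candidates are the powers of `X` -/
def fin7 (P : ℕ) : Bool :=
  bif isPerm P then bif isAut P then (List.range 11).any (fun i => same [P] (List.replicate i X)) else true else true

def test22 (r y : ℕ) : Bool := test X 1 [1] r y && ((8388608 : ℕ).testBit y == (8388608 : ℕ).testBit r)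

theorem hgo : go X T test22 fin7 rs [] = true := by decide +kernel

theorem im_fix {c : M24} {i : ℕ} (hi : i < 24) (h : (c : Equiv.Perm GolayPt) (pt i) = pt i) (y : ℕ) (hy : y < 24) :
    (im c y = i ↔ y = i) := by
  have h1 : im c i = i := by
    unfold im
    rw [h, idx_pt hi]
  constructor
  · intro h2
    exact im_injective c hy hi (h2.trans h1.symm)
  · rintro rfl
    exact h1

/-- the centralizer of `X` in `M22` -/
theorem cent7 {c : M24} (hc : c * el X hX = el X hX * c) (h22 : (c : Equiv.Perm GolayPt) ∈ Spor.M22) :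
    ∃ i : ℕ, c = el X hX ^ i := by
  have e0 : (some 0 : GolayPt) = pt 0 := by decide
  have e23 : (none : GolayPt) = pt 23 := by decide
  have b1 : ∀ j < 24, ((1 : ℕ).testBit j = true ↔ j = 0) := by decide
  have b2 : ∀ j < 24, ((8388608 : ℕ).testBit j = true ↔ j = 23) := by decide
  have f0 := im_fix (c := c) (i := 0) (by norm_num) (by rw [← e0]; exact fix_zero h22)
  have f23 := im_fix (c := c) (i := 23) (by norm_num) (by rw [← e23]; exact fix_none h22)
  have h := fin_of_go hX (T := T) (rs := rs) (by decide +kernel) hgo hc (fun r hr => by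
    have hr24 : r < 24 := by
      have : ∀ r ∈ rs, r < 24 := by decide
      exact this r hr
    unfold test22
    rw [Bool.and_eq_true]
    refine ⟨test_im hX [1] hc ?_ hr24, ?_⟩
    · intro i hi
      rw [Bool.eq_iff_iff, b1 _ (im_lt c i), b1 i hi]
      exact f0 i hi
    · rw [beq_iff_eq, Bool.eq_iff_iff, b2 _ (im_lt c r), b2 r hr24]
      exact f23 r hr24)
  have hok := ok_packOf c
  set P := packOf (c : Equiv.Perm GolayPt) with hP
  have hc' : el P hok = c := el_packOf c
  have h1 := Bool.and_eq_true_iff.1 hok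
  unfold fin7 at h
  rw [h1.1, h1.2] at h
  simp only [cond_true] at h
  obtain ⟨i, _, hi⟩ := List.any_eq_true.1 h
  refine ⟨i, ?_⟩
  have h2 : oks [P] = true := by simp only [oks, hok, Bool.and_self]
  have h4 := prod_eq h2 (oks_replicate hX i) hi
  rw [prod_singleton, hc'] at h4
  rw [h4]
  exact prod_replicate hX i

/-- the elements of `M22` -/
noncomputable def z : Spor.M22 := ⟨el X hX, mem22 hX (by decide +kernel) (by decide +kernel)⟩
noncomputable def k : Spor.M22 := ⟨el N hN, mem22 hN (by decide +kernel) (by decide +kernel)⟩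
noncomputable def y : Spor.M22 := ⟨el Y hY, mem22 hY (by decide +kernel) (by decide +kernel)⟩

/-- the stabilizer of a dodecad -/
def St : Subgroup Spor.M22 := Spor.M12.subgroupOf Spor.M22

theorem z_mem : z ∈ St := M11M12.mem12 hX (by decide +kernel)
theorem k_mem : k ∈ St := M11M12.mem12 hN (by decide +kernel)

theorem v {a b : M24} (h : a = b) : (a : Equiv.Perm GolayPt) = b := congrArg Subtype.val h
theorem v' {a b : Spor.M22} (h : a = b) : (a : Equiv.Perm GolayPt) = b := congrArg (Subtype.val : Spor.M22 → _) h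

theorem St_ne_top : St ≠ ⊤ := by
  intro h
  have h1 : y ∈ St := by rw [h]; exact mem_top y
  have h2 := M11M12.inv12 _ h1 4 (by norm_num)
  have h3 : idx (permOf Y (Bool.and_eq_true_iff.1 hY).1 (pt 4)) = papp Y (idx (pt 4)) := idx_permOf _ _
  rw [idx_pt (by norm_num)] at h3
  have h4 : idx ((Spor.M22.subtype y) (pt 4)) = papp Y 4 := h3
  rw [h4] at h2
  revert h2
  decide +kernel

theorem order_z : orderOf z = 11 := by
  have h1 : (el X hX) ^ 11 = 1 := pow_of hX 11 (by decide +kernel)
  have hf : Fact (Nat.Prime 11) := ⟨by norm_num⟩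
  refine orderOf_eq_prime (Subtype.ext ?_) ?_
  · have h2 := v h1
    rw [SubmonoidClass.coe_pow] at h2 ⊢
    exact h2
  intro h2
  exact ne_one_of hX (by decide +kernel) (Subtype.ext (v' h2))

theorem cent (x : Spor.M22) (h : x * z = z * x) : x ∈ zpowers z := by
  obtain ⟨i, hi⟩ := cent7 (c := ⟨x, M22_le x.2⟩) (Subtype.ext (v' h)) x.2
  have h1 : x = z ^ i := Subtype.ext (v hi)
  rw [h1]
  exact Subgroup.npow_mem_zpowers z i

theorem kchk : ∀ i < 11, same [N, X] (List.replicate i X ++ [N]) = false := by decide +kernel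

theorem notin : k * z * k⁻¹ ∉ zpowers z := by
  intro h
  obtain ⟨i, hi, h2⟩ : ∃ i < 11, z ^ i = k * z * k⁻¹ := by
    have h1 := (isOfFinOrder_of_finite z).mem_zpowers_iff_mem_range_orderOf.1 h
    rw [order_z] at h1
    obtain ⟨i, hi, h2⟩ := Finset.mem_image.1 h1
    exact ⟨i, Finset.mem_range.1 hi, h2⟩
  have h3 : k * z = z ^ i * k := by rw [h2]; group
  have h4 : el N hN * el X hX = el X hX ^ i * el N hN := by
    apply Subtype.ext
    have := congrArg Subtype.val h3
    rw [Subgroup.coe_mul, Subgroup.coe_mul, SubmonoidClass.coe_pow] at this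
    rw [Subgroup.coe_mul, Subgroup.coe_mul, SubmonoidClass.coe_pow]
    exact this
  have h5 : oks [N, X] = true := by simp only [oks, hN, hX, Bool.and_self]
  have h6 : ∀ j : ℕ, ∃ h : oks (List.replicate j X ++ [N]) = true, prod _ h = el X hX ^ j * el N hN := by
    intro j
    induction j with
    | zero => exact ⟨by simp only [List.replicate_zero, List.nil_append, oks, hN, Bool.and_self], by
        rw [pow_zero, one_mul]
        exact prod_singleton _⟩
    | succ j ih =>
      obtain ⟨h7, h8⟩ := ih
      refine ⟨Bool.and_eq_true_iff.2 ⟨hX, h7⟩, ?_⟩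
      rw [pow_succ', mul_assoc, ← h8]
      rfl
  obtain ⟨h7, h8⟩ := h6 i
  apply prod_ne h5 h7 (kchk i hi)
  rw [prod_pair, h8]
  exact h4

/-- **the second criterion for `M22`** -/
theorem kill3 {K : Type*} [Group K] (h : Spor.IsoM22 K) : Kill3 K := by
  obtain ⟨e⟩ := h
  refine Kill3.congr e.symm ?_
  exact Kill3.of (r := 11) (by norm_num) (by norm_num) H729.M22Deg.card_M22 (by norm_num) (by norm_num) (by norm_num)
    order_z cent St St_ne_top z_mem k_mem notin

end Cfsg.Agent.H54.Kill.M22
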