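import Cfsg.Agent.H54.Kill.Base
import Cfsg.Agent.KFacts.MulSpor.ONWords
import Cfsg.Agent.S1699
import Cfsg.Agent.ONType.TupRow

/-!
# Kill row for `ON` (helper54)

The element `z = c d c g e f g d e g⁻¹ c d e c d c` of order 5 commutes with `a` and `b`, and `(a b)³ = 1`.
-/

set_option autoImplicit false
set_option maxRecDepth 100000

namespace Cfsg.Agent.H54.Kill.ON

open Cfsg.Spor (ON)
open Cfsg.Spor.ON (Gen)
open Cfsg.Agent.KFacts.MulSpor.ON (w w_append w_one w_cons w_iw iw eqw cj mats rel okw)
open Cfsg.Agent.SporadicB.ON45Word (on LW)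

/-- the word of order 5 -/
def z : List Gen := [.c, .d, .c, .g, .e, .f, .g, .d, .e, .g, .g, .g, .c, .d, .e, .c, .d, .c]

theorem hON : Cfsg.IsON ON := Cfsg.Agent.S1699.result

theorem za : okw ((z ++ [.a]) ++ iw ([.a] ++ z)) = true := by decide +kernel
theorem zb : okw ((z ++ [.b]) ++ iw ([.b] ++ z)) = true := by decide +kernel
theorem z5 : okw (z ++ (z ++ (z ++ (z ++ z)))) = true := by decide +kernel
theorem ab : okw [.a, .b, .a, .b, .a, .b] = true := by decide +kernel

theorem ne_w (l m : List Gen) (h : Cfsg.Agent.ONType.TupRow.rowNe (mats l) (mats m) = true) : w l ≠ w m :=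
  Cfsg.Agent.ONType.TupRow.ne_of_rowNe (LW.word l) (LW.word m) h

theorem kill_model : Cfsg.Agent.H480.Kill ON := by
  have hs : IsSimpleGroup ON := hON.1
  have hf : Finite ON := Nat.finite_of_card_ne_zero (by rw [hON.2]; norm_num)
  have h5 : Fact (Nat.Prime 5) := ⟨by norm_num⟩
  have hz : orderOf (w z) = 5 := by
    refine orderOf_eq_prime ?_ ?_
    · have h := rel hs _ z5
      simp only [w_append] at h
      rw [← h]
      simp only [pow_succ, pow_zero, one_mul, mul_assoc]
    · have h := ne_w z [] (by decide +kernel)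
      exact h
  have h3 : (w [.a] * w [.b]) ^ 3 = 1 := by
    have h := rel hs _ ab
    rw [show ([.a, .b, .a, .b, .a, .b] : List Gen) = [.a] ++ ([.b] ++ ([.a] ++ ([.b] ++ ([.a] ++ [.b])))) from rfl] at h
    simp only [w_append] at h
    rw [← h]
    simp only [pow_succ, pow_zero, one_mul, mul_assoc]
  refine kill_of_invol (r := 5) (z := w z) (a := w [.a]) (b := w [.b]) (by norm_num) (by norm_num) ?_ hz ?_ ?_ ?_ ?_ h3
    (ne_w _ _ (by decide +kernel))
  · rw [hON.2]
    norm_num
  · have h := eqw hs _ _ za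
    rwa [w_append, w_append] at h
  · have h := eqw hs _ _ zb
    rwa [w_append, w_append] at h
  · rw [← w_append]
    exact rel hs _ (by decide +kernel)
  · rw [← w_append]
    exact rel hs _ (by decide +kernel)

theorem kill {K : Type*} [Group K] (h : Cfsg.Spor.IsoON K) : Cfsg.Agent.H480.Kill K := by
  obtain ⟨e⟩ := h
  exact kill_model.congr e.symm

end Cfsg.Agent.H54.Kill.ON
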